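import Cfsg.Agent.L0.Cover

/-! Generated action table. -/

set_option autoImplicit false
set_option maxRecDepth 100000

namespace Cfsg.Agent.L0.M12Cov0

noncomputable def t0 : BT := .leaf (nat_lit 0xbba8abded7b2116ad6b5a51f38390b7b2278c8ca4b1f39d8b231212635a7210d38b9675da7031534a2531914cb8adb06392b2144f6398a4180418c42188420842000020)

noncomputable def tree : BT := t0

noncomputable def row : ℕ → ℕ := rowOf tree (nat_lit 4) (nat_lit 15) (nat_lit 45) (nat_lit 0x1fffffffffff)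

/-- entries: target and label -/
noncomputable def E : ℕ → ℕ → ℕ := pT row (nat_lit 5) (nat_lit 31)

/-- the relators with their labels -/
def RL : List (List ℕ × ℕ) := [([nat_lit 0, nat_lit 0], nat_lit 0),
  ([nat_lit 1, nat_lit 2], nat_lit 1),
  ([nat_lit 2, nat_lit 1], nat_lit 1),
  ([nat_lit 0, nat_lit 1, nat_lit 1], nat_lit 0),
  ([nat_lit 3, nat_lit 4], nat_lit 0),
  ([nat_lit 4, nat_lit 3], nat_lit 0),
  ([nat_lit 0, nat_lit 3, nat_lit 3], nat_lit 0),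
  ([nat_lit 1, nat_lit 3, nat_lit 2, nat_lit 3], nat_lit 1),
  ([nat_lit 5, nat_lit 5], nat_lit 0),
  ([nat_lit 1, nat_lit 3, nat_lit 5, nat_lit 2, nat_lit 5, nat_lit 4, nat_lit 5], nat_lit 0),
  ([nat_lit 6, nat_lit 6], nat_lit 0),
  ([nat_lit 1, nat_lit 3, nat_lit 6, nat_lit 1, nat_lit 6], nat_lit 0),
  ([nat_lit 5, nat_lit 6, nat_lit 5, nat_lit 6, nat_lit 5, nat_lit 6], nat_lit 0),
  ([nat_lit 7, nat_lit 7], nat_lit 0),
  ([nat_lit 1, nat_lit 5, nat_lit 3, nat_lit 7, nat_lit 3, nat_lit 5, nat_lit 7, nat_lit 6], nat_lit 0),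
  ([nat_lit 0, nat_lit 7, nat_lit 1, nat_lit 3, nat_lit 5, nat_lit 7, nat_lit 5, nat_lit 6, nat_lit 1, nat_lit 7], nat_lit 0),
  ([nat_lit 8, nat_lit 8], nat_lit 0),
  ([nat_lit 0, nat_lit 5, nat_lit 0, nat_lit 8, nat_lit 6, nat_lit 8], nat_lit 0),
  ([nat_lit 7, nat_lit 8, nat_lit 7, nat_lit 8, nat_lit 7, nat_lit 8], nat_lit 0),
  ([nat_lit 1, nat_lit 8, nat_lit 1, nat_lit 8, nat_lit 6, nat_lit 3, nat_lit 5, nat_lit 6], nat_lit 0)]

noncomputable def chk : ℕ → Bool := relChkL E (nat_lit 1) (nat_lit 1) (nat_lit 1) (nat_lit 2) (nat_lit 12) [nat_lit 0, nat_lit 1, nat_lit 2, nat_lit 3, nat_lit 4, nat_lit 5, nat_lit 6, nat_lit 7, nat_lit 8] RL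

theorem b0 : allR chk 4 0 = true := by decide +kernel

theorem all : ∀ c < 12, chk c = true := fun c hc =>
  allR_glue (d := 4) (n := 1) (forall_lt_succ' forall_lt_zero' b0) c (lt_of_lt_of_le hc (by norm_num))

theorem rep {R : List (List ℕ)} (hR : RL.map Prod.fst = R) :
    Rep 9 R (ZMod 2) 1 (valL RL 2) :=
  rep_of_chk hR (by norm_num) (by norm_num) (hR ▸ by decide +kernel) (hR ▸ by decide +kernel)
    (hR ▸ by decide +kernel) le_rfl all

end Cfsg.Agent.L0.M12Cov0
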