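import Cfsg.Agent.L0.M12.Pres
import Cfsg.Agent.L0.M12.Cov0

/-! The covering group. -/

set_option autoImplicit false
set_option maxRecDepth 100000

namespace Cfsg.Agent.L0.M12Pres

theorem lower {G : Type*} [Group G] [Finite G] {x : ℕ → G} (h : IsPres x 9 R) :
    LowerMult G (Multiplicative (ZMod 2)) :=
  lower_one h (M12Cov0.rep (by decide +kernel))
      [(-1, 1), (6, 3), (-1, 4), (-1, 8), (1, 9), (1, 11), (2, 12), (2, 13), (4, 14), (-6, 15), (2, 18), (-3, 19)]
      (by decide +kernel) (by decide +kernel)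

end Cfsg.Agent.L0.M12Pres
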